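import Mathlib

/-!
# Frames in a lattice with the theta coefficients of the Leech lattice

Counting the classes modulo `2L` of the vectors of norm at most 8 shows that a class of vectors of norm 8 contains
24 mutually orthogonal vectors up to sign.  Their inner products give coordinates in which the norm is a sum of squares.
-/

set_option autoImplicit false
set_option linter.unusedSectionVars false

namespace Cfsg.Agent.Lib.LeechUniq.Frame

open Matrix

/-- The lattice. -/
abbrev LL := Fin 24 → ℤ

variable (B : Matrix (Fin 24) (Fin 24) ℤ)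

/-- The bilinear form. -/
def bil (x y : LL) : ℤ := x ⬝ᵥ (B *ᵥ y)

/-- The quadratic form. -/
def QQ (x : LL) : ℤ := bil B x x

variable {B}

theorem bil_symm (hs : B.IsSymm) (x y : LL) : bil B x y = bil B y x := by
  unfold bil
  rw [Matrix.dotProduct_mulVec, ← Matrix.mulVec_transpose, hs.eq, dotProduct_comm]

theorem bil_add_left (x y z : LL) : bil B (x + y) z = bil B x z + bil B y z := by
  simp [bil, add_dotProduct]

theorem bil_add_right (x y z : LL) : bil B x (y + z) = bil B x y + bil B x z := by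
  simp [bil, mulVec_add, dotProduct_add]

theorem bil_neg_left (x z : LL) : bil B (-x) z = - bil B x z := by
  simp [bil, neg_dotProduct]

theorem bil_neg_right (x z : LL) : bil B x (-z) = - bil B x z := by
  simp [bil, mulVec_neg, dotProduct_neg]

theorem bil_zero_right (x : LL) : bil B x 0 = 0 := by
  simp [bil]

theorem bil_zero_left (x : LL) : bil B 0 x = 0 := by
  simp [bil]

theorem bil_sub_left (x y z : LL) : bil B (x - y) z = bil B x z - bil B y z := by
  rw [sub_eq_add_neg, bil_add_left, bil_neg_left]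
  ring

theorem bil_sub_right (x y z : LL) : bil B x (y - z) = bil B x y - bil B x z := by
  rw [sub_eq_add_neg, bil_add_right, bil_neg_right]
  ring

theorem QQ_neg (x : LL) : QQ B (-x) = QQ B x := by
  simp [QQ, bil_neg_left, bil_neg_right]

/-- The positivity hypotheses. -/
structure Hyp (B : Matrix (Fin 24) (Fin 24) ℤ) : Prop where
  symm : B.IsSymm
  pos : ∀ x : LL, x ≠ 0 → 0 < QQ B x
  even : ∀ x : LL, (2 : ℤ) ∣ QQ B x
  no2 : ∀ x : LL, QQ B x ≠ 2

theorem Hyp.ge_four (h : Hyp B) {x : LL} (hx : x ≠ 0) : 4 ≤ QQ B x := by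
  have h1 := h.pos x hx
  obtain ⟨k, hk⟩ := h.even x
  have h2 := h.no2 x
  omega

/-- The class modulo 2. -/
def cls (x : LL) : Fin 24 → ZMod 2 := fun i => (x i : ZMod 2)

theorem cls_neg (x : LL) : cls (-x) = cls x := by
  funext i
  simp [cls, Pi.neg_apply]

theorem exists_half {x y : LL} (h : cls x = cls y) : ∃ u v : LL, x = v + u ∧ y = v - u := by
  have h1 : ∀ i, (2 : ℤ) ∣ x i - y i := by
    intro i
    have h2 : (x i : ZMod 2) = (y i : ZMod 2) := congrFun h i
    have h3 := (ZMod.intCast_eq_intCast_iff_dvd_sub (x i) (y i) 2).1 h2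
    push_cast at h3
    have h4 : (2 : ℤ) ∣ x i - y i := by
      have : x i - y i = -(y i - x i) := by ring
      rw [this]
      exact (dvd_neg).2 h3
    exact h4
  refine ⟨fun i => (x i - y i) / 2, fun i => (x i + y i) / 2, ?_, ?_⟩
  · funext i
    have := h1 i
    simp only [Pi.add_apply]
    omega
  · funext i
    have := h1 i
    simp only [Pi.sub_apply]
    omega

theorem short (h : Hyp B) {x y : LL} (hc : cls x = cls y) (h1 : x ≠ y) (h2 : x ≠ -y) :
    16 ≤ QQ B x + QQ B y ∧ (QQ B x = 8 → QQ B y = 8 → bil B x y = 0) := by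
  obtain ⟨u, v, rfl, rfl⟩ := exists_half hc
  have hu : u ≠ 0 := by
    rintro rfl
    simp at h1
  have hv : v ≠ 0 := by
    rintro rfl
    apply h2
    simp
  have h3 := h.ge_four hu
  have h4 := h.ge_four hv
  have hsy := bil_symm h.symm u v
  have e1 : QQ B (v + u) = QQ B v + QQ B u + 2 * bil B u v := by
    simp only [QQ, bil_add_left, bil_add_right, hsy]
    ring
  have e2 : QQ B (v - u) = QQ B v + QQ B u - 2 * bil B u v := by
    simp only [QQ, bil_sub_left, bil_sub_right, hsy]
    ring
  have e3 : bil B (v + u) (v - u) = QQ B v - QQ B u := by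
    simp only [QQ, bil_add_left, bil_sub_right, hsy]
    ring
  rw [e1, e2, e3]
  constructor
  · omega
  · intro h5 h6
    omega

theorem card_le_two_mul (h : Hyp B) (S : Finset LL) (hS : ∀ x ∈ S, ∀ y ∈ S, QQ B x + QQ B y < 16) :
    S.card ≤ 2 * (S.image cls).card := by
  classical
  apply Finset.card_le_mul_card_image
  intro a ha
  obtain ⟨x, hx, rfl⟩ := Finset.mem_image.mp ha
  have hsub : S.filter (fun y => cls y = cls x) ⊆ {x, -x} := by
    intro y hy
    obtain ⟨hy1, hy2⟩ := Finset.mem_filter.mp hy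
    simp only [Finset.mem_insert, Finset.mem_singleton]
    by_contra hne
    push Not at hne
    have := (short h hy2 hne.1 hne.2).1
    have := hS x hx y hy1
    omega
  exact (Finset.card_le_card hsub).trans Finset.card_le_two

theorem no_common (h : Hyp B) {x y : LL} (hc : cls x = cls y) (hlt : QQ B x + QQ B y < 16)
    (hne : QQ B x ≠ QQ B y) : False := by
  have h1 : x ≠ y := by
    rintro rfl
    exact hne rfl
  have h2 : x ≠ -y := by
    rintro rfl
    rw [QQ_neg] at hne
    exact hne rfl
  have := (short h hc h1 h2).1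
  omega

/-- The existence of a frame. -/
theorem exists_frame (h : Hyp B) (h4 : {x : LL | QQ B x = 4}.ncard = 196560)
    (h6 : {x : LL | QQ B x = 6}.ncard = 16773120) (h8 : {x : LL | QQ B x = 8}.ncard = 398034000) :
    ∃ f : Fin 24 → LL, (∀ i, QQ B (f i) = 8) ∧ (∀ i j, i ≠ j → bil B (f i) (f j) = 0) ∧
      ∀ i j, cls (f i) = cls (f j) := by
  classical
  have hf4 : {x : LL | QQ B x = 4}.Finite := Set.finite_of_ncard_ne_zero (by rw [h4]; norm_num)
  have hf6 : {x : LL | QQ B x = 6}.Finite := Set.finite_of_ncard_ne_zero (by rw [h6]; norm_num)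
  have hf8 : {x : LL | QQ B x = 8}.Finite := Set.finite_of_ncard_ne_zero (by rw [h8]; norm_num)
  set f4 := hf4.toFinset with hf4d
  set f6 := hf6.toFinset with hf6d
  set f8 := hf8.toFinset with hf8d
  have c4 : f4.card = 196560 := by rw [← Set.ncard_eq_toFinset_card _ hf4]; exact h4
  have c6 : f6.card = 16773120 := by rw [← Set.ncard_eq_toFinset_card _ hf6]; exact h6
  have c8 : f8.card = 398034000 := by rw [← Set.ncard_eq_toFinset_card _ hf8]; exact h8
  have m4 : ∀ x, x ∈ f4 ↔ QQ B x = 4 := fun x => by simp [hf4d]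
  have m6 : ∀ x, x ∈ f6 ↔ QQ B x = 6 := fun x => by simp [hf6d]
  have m8 : ∀ x, x ∈ f8 ↔ QQ B x = 8 := fun x => by simp [hf8d]
  set I4 := f4.image cls with hI4
  set I6 := f6.image cls with hI6
  set I8 := f8.image cls with hI8
  have l4 : 98280 ≤ I4.card := by
    have : f4.card ≤ 2 * I4.card := card_le_two_mul h f4 (fun x hx y hy => by
      rw [(m4 x).1 hx, (m4 y).1 hy]; norm_num)
    omega
  have l6 : 8386560 ≤ I6.card := by
    have : f6.card ≤ 2 * I6.card := card_le_two_mul h f6 (fun x hx y hy => by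
      rw [(m6 x).1 hx, (m6 y).1 hy]; norm_num)
    omega
  have Q0 : QQ B 0 = 0 := bil_zero_right _
  have c0 : cls (0 : LL) = 0 := by
    funext i
    simp [cls]
  have d46 : Disjoint I4 I6 := by
    rw [Finset.disjoint_left]
    intro a ha hb
    obtain ⟨x, hx, rfl⟩ := Finset.mem_image.mp ha
    obtain ⟨y, hy, hxy⟩ := Finset.mem_image.mp hb
    exact no_common h hxy.symm (by rw [(m4 x).1 hx, (m6 y).1 hy]; norm_num) (by rw [(m4 x).1 hx, (m6 y).1 hy]; norm_num)
  have d48 : Disjoint I4 I8 := by
    rw [Finset.disjoint_left]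
    intro a ha hb
    obtain ⟨x, hx, rfl⟩ := Finset.mem_image.mp ha
    obtain ⟨y, hy, hxy⟩ := Finset.mem_image.mp hb
    exact no_common h hxy.symm (by rw [(m4 x).1 hx, (m8 y).1 hy]; norm_num) (by rw [(m4 x).1 hx, (m8 y).1 hy]; norm_num)
  have d68 : Disjoint I6 I8 := by
    rw [Finset.disjoint_left]
    intro a ha hb
    obtain ⟨x, hx, rfl⟩ := Finset.mem_image.mp ha
    obtain ⟨y, hy, hxy⟩ := Finset.mem_image.mp hb
    exact no_common h hxy.symm (by rw [(m6 x).1 hx, (m8 y).1 hy]; norm_num) (by rw [(m6 x).1 hx, (m8 y).1 hy]; norm_num)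
  have n0 : ∀ S : Finset LL, (∀ x ∈ S, 0 < QQ B x ∧ QQ B x < 16) → (0 : Fin 24 → ZMod 2) ∉ S.image cls := by
    intro S hS h0
    obtain ⟨x, hx, hx0⟩ := Finset.mem_image.mp h0
    obtain ⟨h1, h2⟩ := hS x hx
    refine no_common h (x := x) (y := 0) (hx0.trans c0.symm) ?_ ?_
    · rw [Q0]; omega
    · rw [Q0]; omega
  have n4 := n0 f4 (fun x hx => by rw [(m4 x).1 hx]; norm_num)
  have n6 := n0 f6 (fun x hx => by rw [(m6 x).1 hx]; norm_num)
  have n8 := n0 f8 (fun x hx => by rw [(m8 x).1 hx]; norm_num)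
  have htot : 1 + (I4.card + (I6.card + I8.card)) ≤ 2 ^ 24 := by
    have h1 : (insert (0 : Fin 24 → ZMod 2) (I4 ∪ (I6 ∪ I8))).card = 1 + (I4.card + (I6.card + I8.card)) := by
      rw [Finset.card_insert_of_notMem, Finset.card_union_of_disjoint, Finset.card_union_of_disjoint d68]
      · ring
      · rw [Finset.disjoint_union_right]
        exact ⟨d46, d48⟩
      · simp only [Finset.mem_union, not_or]
        exact ⟨n4, n6, n8⟩
    rw [← h1]
    have h2 := Finset.card_le_univ (insert (0 : Fin 24 → ZMod 2) (I4 ∪ (I6 ∪ I8)))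
    have h3 : Fintype.card (Fin 24 → ZMod 2) = 2 ^ 24 := by
      simp [ZMod.card]
    omega
  have l8 : I8.card ≤ 8292375 := by
    norm_num at htot
    omega
  -- a class with 48 vectors
  obtain ⟨t, ht, hfib⟩ : ∃ t ∈ I8, 48 ≤ (f8.filter fun x => cls x = t).card := by
    by_contra hcon
    push Not at hcon
    have h1 : f8.card ≤ 47 * I8.card := Finset.card_le_mul_card_image (f := cls) f8 47 (fun a ha => by
      have := hcon a ha
      omega)
    have h2 : 47 * I8.card ≤ 47 * 8292375 := Nat.mul_le_mul_left _ l8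
    rw [c8] at h1
    omega
  set F := f8.filter fun x => cls x = t with hF
  have mF : ∀ x ∈ F, QQ B x = 8 ∧ cls x = t := by
    intro x hx
    obtain ⟨h1, h2⟩ := Finset.mem_filter.mp hx
    exact ⟨(m8 x).1 h1, h2⟩
  let pr : LL → Finset LL := fun x => {x, -x}
  have hG : 24 ≤ (F.image pr).card := by
    have h1 := Finset.card_le_mul_card_image (f := pr) F 2 (fun a ha => by
      obtain ⟨x, hx, rfl⟩ := Finset.mem_image.mp ha
      have hsub : F.filter (fun y => pr y = pr x) ⊆ {x, -x} := by
        intro y hy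
        have hy2 : pr y = pr x := (Finset.mem_filter.mp hy).2
        have : y ∈ pr y := by simp [pr]
        rw [hy2] at this
        exact this
      exact (Finset.card_le_card hsub).trans Finset.card_le_two)
    omega
  obtain ⟨G, hGs, hGc⟩ := Finset.exists_subset_card_eq hG
  let e := Finset.equivFinOfCardEq hGc
  have hch : ∀ i : Fin 24, ∃ x ∈ F, pr x = (e.symm i).1 := by
    intro i
    have := hGs (e.symm i).2
    obtain ⟨x, hx, hx2⟩ := Finset.mem_image.mp this
    exact ⟨x, hx, hx2⟩
  choose f hf1 hf2 using hch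
  refine ⟨f, fun i => (mF _ (hf1 i)).1, ?_, fun i j => ((mF _ (hf1 i)).2).trans ((mF _ (hf1 j)).2).symm⟩
  intro i j hij
  have hne : pr (f i) ≠ pr (f j) := by
    rw [hf2, hf2]
    intro h1
    exact hij (e.symm.injective (Subtype.ext h1))
  have h1 : f i ≠ f j := by
    intro h2
    rw [h2] at hne
    exact hne rfl
  have h2 : f i ≠ -f j := by
    intro h2
    apply hne
    simp only [pr, h2, neg_neg]
    exact Finset.pair_comm _ _
  exact (short h (((mF _ (hf1 i)).2).trans ((mF _ (hf1 j)).2).symm) h1 h2).2 (mF _ (hf1 i)).1 (mF _ (hf1 j)).1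

end Cfsg.Agent.Lib.LeechUniq.Frame
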