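import Mathlib
import Cfsg.Agent.Lib.LeechUniq.Frame

/-!
# Coordinates given by a frame
-/

set_option autoImplicit false
set_option linter.unusedSectionVars false

namespace Cfsg.Agent.Lib.LeechUniq.Coord

open Matrix Cfsg.Agent.Lib.LeechUniq.Frame

variable {B : Matrix (Fin 24) (Fin 24) ℤ}

/-- A frame. -/
structure IsFrame (B : Matrix (Fin 24) (Fin 24) ℤ) (f : Fin 24 → LL) : Prop where
  norm : ∀ i, QQ B (f i) = 8
  orth : ∀ i j, i ≠ j → bil B (f i) (f j) = 0
  plus : ∀ i j, ∃ v : LL, f i + f j = v + v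
  minus : ∀ i j, ∃ u : LL, f i - f j = u + u

/-- The coordinates. -/
def Phi (B : Matrix (Fin 24) (Fin 24) ℤ) (f : Fin 24 → LL) : LL →+ LL where
  toFun x := fun i => bil B (f i) x
  map_zero' := by
    funext i
    exact bil_zero_right _
  map_add' x y := by
    funext i
    exact bil_add_right _ _ _

theorem Phi_apply (f : Fin 24 → LL) (x : LL) (i : Fin 24) : Phi B f x i = bil B (f i) x := rfl

theorem parseval {f : Fin 24 → LL} (hf : IsFrame B f) (hs : B.IsSymm) (x y : LL) :
    ∑ i, Phi B f x i * Phi B f y i = 8 * bil B x y := by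
  let F : Matrix (Fin 24) (Fin 24) ℤ := Matrix.of fun a i => f i a
  let P : Matrix (Fin 24) (Fin 24) ℤ := Fᵀ * B
  have hP : ∀ x : LL, P *ᵥ x = Phi B f x := by
    intro x
    funext i
    rw [← Matrix.mulVec_mulVec]
    rfl
  have h1 : P * F = (8 : ℤ) • (1 : Matrix (Fin 24) (Fin 24) ℤ) := by
    ext i j
    have h2 : (P * F) i j = (P *ᵥ f j) i := rfl
    rw [h2, hP, Phi_apply]
    by_cases hij : i = j
    · subst hij
      have := hf.norm i
      simp only [QQ] at this
      simp only [Matrix.smul_apply, Matrix.one_apply_eq, smul_eq_mul]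
      omega
    · rw [hf.orth i j hij]
      simp only [Matrix.smul_apply, Matrix.one_apply_ne hij, smul_eq_mul]
      omega
  have h2 : F * P = (8 : ℤ) • (1 : Matrix (Fin 24) (Fin 24) ℤ) := by
    let c : ℤ →+* ℚ := Int.castRingHom ℚ
    have h3 : ((1 / 8 : ℚ) • P.map c) * F.map c = 1 := by
      rw [Matrix.smul_mul, ← Matrix.map_mul, h1]
      ext i j
      by_cases hij : i = j
      · subst hij
        simp only [Matrix.smul_apply, Matrix.map_apply, Matrix.one_apply_eq, smul_eq_mul, c]
        norm_num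
      · simp only [Matrix.smul_apply, Matrix.map_apply, Matrix.one_apply_ne hij, smul_eq_mul, c]
        norm_num
    have h4 : F.map c * ((1 / 8 : ℚ) • P.map c) = 1 := mul_eq_one_comm.1 h3
    have h5 : (F * P).map c = ((8 : ℤ) • (1 : Matrix (Fin 24) (Fin 24) ℤ)).map c := by
      rw [Matrix.map_mul]
      rw [Matrix.mul_smul] at h4
      ext i j
      have h6 := congrFun (congrFun h4 i) j
      simp only [Matrix.smul_apply, smul_eq_mul] at h6
      by_cases hij : i = j
      · subst hij
        simp only [Matrix.one_apply_eq] at h6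
        have h7 : (F.map c * P.map c) i i = 8 := by linarith
        rw [h7]
        simp only [Matrix.smul_apply, Matrix.map_apply, Matrix.one_apply_eq, smul_eq_mul, c]
        norm_num
      · simp only [Matrix.one_apply_ne hij] at h6
        have h7 : (F.map c * P.map c) i j = 0 := by linarith
        rw [h7]
        simp only [Matrix.smul_apply, Matrix.map_apply, Matrix.one_apply_ne hij, smul_eq_mul, c]
        norm_num
    exact Matrix.map_injective (Int.cast_injective) h5
  have h3 : Pᵀ * P = (8 : ℤ) • B := by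
    have h4 : Pᵀ = B * F := by
      simp only [P, Matrix.transpose_mul, Matrix.transpose_transpose, hs.eq]
    rw [h4, Matrix.mul_assoc, h2, Matrix.mul_smul, Matrix.mul_one]
  have h4 : ∑ i, Phi B f x i * Phi B f y i = (P *ᵥ x) ⬝ᵥ (P *ᵥ y) := by
    rw [hP, hP]
    rfl
  rw [h4, Matrix.dotProduct_mulVec, ← Matrix.vecMul_transpose, Matrix.vecMul_vecMul, h3,
    ← Matrix.dotProduct_mulVec, Matrix.smul_mulVec, dotProduct_smul, smul_eq_mul]
  rfl

theorem Phi_frame {f : Fin 24 → LL} (hf : IsFrame B f) (j : Fin 24) : Phi B f (f j) = Pi.single j 8 := by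
  funext i
  rw [Phi_apply]
  by_cases hij : i = j
  · subst hij
    rw [Pi.single_eq_same]
    exact hf.norm i
  · rw [Pi.single_eq_of_ne hij]
    exact hf.orth i j hij

/-- The conditions on the lattice in the coordinates. -/
structure Good (Y : AddSubgroup LL) : Prop where
  dot8 : ∀ y ∈ Y, ∀ z ∈ Y, (8 : ℤ) ∣ ∑ i, y i * z i
  norm16 : ∀ y ∈ Y, (16 : ℤ) ∣ ∑ i, y i * y i
  min32 : ∀ y ∈ Y, y ≠ 0 → 32 ≤ ∑ i, y i * y i
  plus : ∀ i j, i ≠ j → (Pi.single i 4 + Pi.single j 4 : LL) ∈ Y
  minus : ∀ i j, i ≠ j → (Pi.single i 4 - Pi.single j 4 : LL) ∈ Y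
  count : {y : LL | y ∈ Y ∧ ∑ i, y i * y i = 32}.ncard = 196560

theorem Phi_inj {f : Fin 24 → LL} (hf : IsFrame B f) (h : Hyp B) : Function.Injective (Phi B f) := by
  rw [injective_iff_map_eq_zero]
  intro x hx
  by_contra hne
  have h1 := h.pos x hne
  have h2 := parseval hf h.symm x x
  rw [hx] at h2
  simp only [Pi.zero_apply, mul_zero, Finset.sum_const_zero] at h2
  have h3 : QQ B x = bil B x x := rfl
  omega

theorem good_of_frame {f : Fin 24 → LL} (hf : IsFrame B f) (h : Hyp B)
    (h4 : {x : LL | QQ B x = 4}.ncard = 196560) : Good (Phi B f).range := by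
  have hpa := parseval hf h.symm
  refine ⟨?_, ?_, ?_, ?_, ?_, ?_⟩
  · rintro _ ⟨x, rfl⟩ _ ⟨y, rfl⟩
    rw [hpa]
    exact dvd_mul_right _ _
  · rintro _ ⟨x, rfl⟩
    rw [hpa]
    obtain ⟨k, hk⟩ := h.even x
    have h3 : QQ B x = bil B x x := rfl
    rw [← h3, hk]
    exact ⟨k, by ring⟩
  · rintro _ ⟨x, rfl⟩ hne
    rw [hpa]
    have hx : x ≠ 0 := by
      rintro rfl
      exact hne (map_zero _)
    have h5 := h.ge_four hx
    have h3 : QQ B x = bil B x x := rfl
    omega
  · intro i j hij
    obtain ⟨v, hv⟩ := hf.plus i j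
    refine ⟨v, ?_⟩
    have h5 : Phi B f (f i) + Phi B f (f j) = Phi B f v + Phi B f v := by
      rw [← map_add, hv, map_add]
    rw [Phi_frame hf, Phi_frame hf] at h5
    funext k
    have h6 := congrFun h5 k
    simp only [Pi.add_apply] at h6 ⊢
    by_cases hki : k = i
    · subst hki
      rw [Pi.single_eq_same, Pi.single_eq_of_ne hij] at h6 ⊢
      omega
    · by_cases hkj : k = j
      · subst hkj
        rw [Pi.single_eq_same, Pi.single_eq_of_ne hki] at h6 ⊢
        omega
      · rw [Pi.single_eq_of_ne hki, Pi.single_eq_of_ne hkj] at h6 ⊢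
        omega
  · intro i j hij
    obtain ⟨v, hv⟩ := hf.minus i j
    refine ⟨v, ?_⟩
    have h5 : Phi B f (f i) - Phi B f (f j) = Phi B f v + Phi B f v := by
      rw [← map_sub, hv, map_add]
    rw [Phi_frame hf, Phi_frame hf] at h5
    funext k
    have h6 := congrFun h5 k
    simp only [Pi.add_apply, Pi.sub_apply] at h6 ⊢
    by_cases hki : k = i
    · subst hki
      rw [Pi.single_eq_same, Pi.single_eq_of_ne hij] at h6 ⊢
      omega
    · by_cases hkj : k = j
      · subst hkj
        rw [Pi.single_eq_same, Pi.single_eq_of_ne hki] at h6 ⊢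
        omega
      · rw [Pi.single_eq_of_ne hki, Pi.single_eq_of_ne hkj] at h6 ⊢
        omega
  · have hset : {y : LL | y ∈ (Phi B f).range ∧ ∑ i, y i * y i = 32} = (Phi B f) '' {x : LL | QQ B x = 4} := ?_
    · rw [hset, Set.ncard_image_of_injective _ (Phi_inj hf h)]
      exact h4
    ext y
    constructor
    · rintro ⟨⟨x, rfl⟩, h5⟩
      refine ⟨x, ?_, rfl⟩
      rw [hpa] at h5
      have h3 : QQ B x = bil B x x := rfl
      show QQ B x = 4
      omega
    · rintro ⟨x, hx, rfl⟩
      refine ⟨⟨x, rfl⟩, ?_⟩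
      rw [hpa]
      have hx' : QQ B x = 4 := hx
      have h3 : QQ B x = bil B x x := rfl
      omega

end Cfsg.Agent.Lib.LeechUniq.Coord
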