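import Mathlib
import Cfsg.Agent.Lib.LeechUniq.Coord
import Cfsg.Agent.Lib.Sporadic.LeechBasic
import Cfsg.Agent.Lib.Compute.AbstractGolay

/-!
# The code attached to a lattice in frame coordinates
-/

set_option autoImplicit false
set_option linter.unusedSectionVars false

namespace Cfsg.Agent.Lib.LeechUniq.GoodA

open Cfsg Cfsg.Agent.Lib.LeechUniq.Frame Cfsg.Agent.Lib.LeechUniq.Coord
open Cfsg.Agent.Lib.Compute.AbstractGolay
open Cfsg.Agent.Lib.Sporadic.LeechBasic

variable {Y : AddSubgroup LL}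

theorem sum_mul_single (y : LL) (i : Fin 24) (a : ℤ) : ∑ k, y k * (Pi.single i a : LL) k = y i * a := by
  rw [Finset.sum_eq_single i]
  · simp
  · intro k _ hk
    simp [Pi.single_eq_of_ne hk]
  · simp

theorem par (hY : Good Y) {y : LL} (hy : y ∈ Y) (i j : Fin 24) : (2 : ℤ) ∣ y i + y j := by
  by_cases hij : i = j
  · subst hij
    exact ⟨y i, by ring⟩
  · have h := hY.dot8 y hy _ (hY.plus i j hij)
    have e : ∑ k, y k * (Pi.single i 4 + Pi.single j 4 : LL) k = 4 * (y i + y j) := by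
      simp only [Pi.add_apply, mul_add, Finset.sum_add_distrib, sum_mul_single]
      ring
    rw [e] at h
    omega

theorem M_mem (hY : Good Y) (z : LL) (hz : (2 : ℤ) ∣ ∑ i, z i) : (fun i => 4 * z i : LL) ∈ Y := by
  have hne : (0 : Fin 24) ≠ 1 := by decide
  have ha : ∀ i : Fin 24, (Pi.single i 4 - Pi.single 0 4 : LL) ∈ Y := by
    intro i
    by_cases h : i = 0
    · subst h
      simp [Y.zero_mem]
    · exact hY.minus i 0 h
  have hb : (Pi.single 0 8 : LL) ∈ Y := by
    have h := Y.add_mem (hY.plus 0 1 hne) (hY.minus 0 1 hne)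
    convert h using 1
    funext k
    simp only [Pi.add_apply, Pi.sub_apply, Pi.single_apply]
    split_ifs <;> norm_num
  obtain ⟨t, ht⟩ := hz
  have key : (fun i => 4 * z i : LL) = (∑ i, z i • (Pi.single i 4 - Pi.single 0 4 : LL)) + t • (Pi.single 0 8 : LL) := by
    funext k
    simp only [Finset.sum_apply, Pi.add_apply, Pi.smul_apply, Pi.sub_apply, smul_eq_mul, mul_sub,
      Finset.sum_sub_distrib, ← Finset.sum_mul, ht]
    have h1 : ∑ i, z i * (Pi.single i 4 : LL) k = z k * 4 := by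
      rw [Finset.sum_eq_single k]
      · simp
      · intro i _ hi
        simp [Pi.single_eq_of_ne hi.symm]
      · simp
    rw [h1]
    by_cases hk : k = 0
    · subst hk
      simp
      ring
    · simp [Pi.single_eq_of_ne hk]
      ring
  rw [key]
  exact Y.add_mem (Y.sum_mem fun i _ => Y.zsmul_mem (ha i) _) (Y.zsmul_mem hb t)

theorem single_four_not_mem (hY : Good Y) (i : Fin 24) : (Pi.single i 4 : LL) ∉ Y := by
  intro h
  have h1 := hY.min32 _ h (by
    intro h0
    have := congrFun h0 i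
    simp at this)
  rw [sum_mul_single] at h1
  simp at h1

theorem M_even (hY : Good Y) (z : LL) (hz : (fun i => 4 * z i : LL) ∈ Y) : (2 : ℤ) ∣ ∑ i, z i := by
  by_contra h
  let z' : LL := z - Pi.single 0 1
  have e1 : ∑ i, z' i = ∑ i, z i - 1 := by
    simp [z', Finset.sum_sub_distrib]
  have h1 : (fun i => 4 * z' i : LL) ∈ Y := M_mem hY z' (by rw [e1]; omega)
  have h2 := Y.sub_mem hz h1
  apply single_four_not_mem hY 0
  convert h2 using 1
  funext k
  simp only [z', Pi.sub_apply, Pi.single_apply]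
  split_ifs <;> ring

theorem wd_add_of_even {a b : LL} (ha : ∀ i, (2 : ℤ) ∣ a i) (hb : ∀ i, (2 : ℤ) ∣ b i) : wd (a + b) = wd a + wd b := by
  funext i
  have h1 := ha i
  have h2 := hb i
  have h3 : (a i + b i) / 2 = a i / 2 + b i / 2 := by omega
  simp only [wd, Pi.add_apply, h3]
  push_cast
  rfl

theorem wd_zero : wd (0 : LL) = 0 := by
  funext i
  simp [wd]

/-- The code. -/
def C (Y : AddSubgroup LL) : Submodule (ZMod 2) V where
  carrier := {v | ∃ y ∈ Y, (∀ i, (2 : ℤ) ∣ y i) ∧ wd y = v}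
  add_mem' := by
    rintro _ _ ⟨a, ha, ha2, rfl⟩ ⟨b, hb, hb2, rfl⟩
    exact ⟨a + b, Y.add_mem ha hb, fun i => dvd_add (ha2 i) (hb2 i), wd_add_of_even ha2 hb2⟩
  zero_mem' := ⟨0, Y.zero_mem, fun _ => dvd_zero _, wd_zero⟩
  smul_mem' := by
    rintro c _ ⟨a, ha, ha2, rfl⟩
    have h : c = 0 ∨ c = 1 := by
      revert c
      decide
    rcases h with rfl | rfl
    · exact ⟨0, Y.zero_mem, fun _ => dvd_zero _, by rw [wd_zero, zero_smul]⟩
    · exact ⟨a, ha, ha2, by rw [one_smul]⟩

theorem mem_C {v : V} : v ∈ C Y ↔ ∃ y ∈ Y, (∀ i, (2 : ℤ) ∣ y i) ∧ wd y = v := Iff.rfl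

theorem minw (hY : Good Y) {v : V} (hv : v ∈ C Y) (hne : v ≠ 0) : 8 ≤ hammingNorm v := by
  classical
  obtain ⟨u, hu, hev, rfl⟩ := hv
  obtain ⟨i₀, hi₀⟩ : ∃ i, wd u i ≠ 0 := by
    by_contra hcon
    push Not at hcon
    exact hne (funext hcon)
  let χ : LL := fun i => if wd u i ≠ 0 then 1 else 0
  let z : LL := fun i => (u i / 2 - χ i) / 2
  have hz : ∀ i, u i = 2 * χ i + 4 * z i := by
    intro i
    have h1 := hev i
    by_cases h : wd u i ≠ 0
    · have h2 : (u i / 2) % 2 = 1 := (zmod2_cast_ne_zero_iff _).1 h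
      simp only [χ, z, h, if_true, ne_eq, not_false_eq_true]
      omega
    · have h2 : (u i / 2) % 2 ≠ 1 := fun h' => h ((zmod2_cast_ne_zero_iff _).2 h')
      simp only [χ, z, h, if_false]
      omega
  have hχ : χ i₀ = 1 := by simp [χ, hi₀]
  have hχ' : ∀ i, χ i = 0 ∨ χ i = 1 := by
    intro i
    by_cases h : wd u i ≠ 0 <;> simp [χ, h]
  obtain ⟨δ, hδ, hdvd⟩ : ∃ δ : ℤ, (δ = 0 ∨ δ = 1) ∧ (2 : ℤ) ∣ ∑ i, (z + Pi.single i₀ δ : LL) i := by
    have e : ∀ δ : ℤ, ∑ i, (z + Pi.single i₀ δ : LL) i = ∑ i, z i + δ := by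
      intro δ
      simp [Finset.sum_add_distrib]
    by_cases h : (2 : ℤ) ∣ ∑ i, z i
    · exact ⟨0, Or.inl rfl, by rw [e]; simpa using h⟩
    · exact ⟨1, Or.inr rfl, by rw [e]; omega⟩
  let z' : LL := z + Pi.single i₀ δ
  have hm : (fun i => 4 * z' i : LL) ∈ Y := M_mem hY z' hdvd
  let u' : LL := u - (fun i => 4 * z' i)
  have hu' : u' ∈ Y := Y.sub_mem hu hm
  have hval : ∀ i, u' i * u' i = 4 * χ i := by
    intro i
    have e1 : u' i = 2 * χ i - 4 * (Pi.single i₀ δ : LL) i := by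
      simp only [u', z', Pi.sub_apply, Pi.add_apply]
      rw [hz i]
      ring
    rw [e1]
    by_cases hi : i = i₀
    · subst hi
      rw [Pi.single_eq_same, hχ]
      rcases hδ with rfl | rfl <;> norm_num
    · rw [Pi.single_eq_of_ne hi]
      rcases hχ' i with h | h <;> rw [h] <;> norm_num
  have hsum : ∑ i, u' i * u' i = 4 * (hammingNorm (wd u) : ℤ) := by
    rw [Finset.sum_congr rfl (fun i _ => hval i), ← Finset.mul_sum, hammingNorm_eq_sum]
    push_cast
    rfl
  have hne0 : u' ≠ 0 := by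
    intro h0
    have := hval i₀
    rw [h0, hχ] at this
    simp at this
  have := hY.min32 u' hu' hne0
  omega

theorem orth (hY : Good Y) {v w : V} (hv : v ∈ C Y) (hw : w ∈ C Y) : ∑ i, v i * w i = 0 := by
  obtain ⟨u, hu, hu2, rfl⟩ := hv
  obtain ⟨u', hu', hu2', rfl⟩ := hw
  have h := hY.dot8 u hu u' hu'
  have e : ∑ i, u i * u' i = 4 * ∑ i, (u i / 2) * (u' i / 2) := by
    rw [Finset.mul_sum]
    refine Finset.sum_congr rfl fun i _ => ?_
    obtain ⟨a, ha⟩ := hu2 i
    obtain ⟨b, hb⟩ := hu2' i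
    rw [ha, hb, Int.mul_ediv_cancel_left _ (by norm_num), Int.mul_ediv_cancel_left _ (by norm_num)]
    ring
  rw [e] at h
  have h2 : (2 : ℤ) ∣ ∑ i, (u i / 2) * (u' i / 2) := by omega
  have h3 : ((∑ i, (u i / 2) * (u' i / 2) : ℤ) : ZMod 2) = 0 :=
    (ZMod.intCast_zmod_eq_zero_iff_dvd _ 2).2 (by exact_mod_cast h2)
  push_cast at h3
  exact h3

theorem dim_le (hY : Good Y) : Module.finrank (ZMod 2) (C Y) ≤ 12 := by
  have hle : C Y ≤ dotForm.orthogonal (C Y) := by
    intro x hx y hy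
    show dotForm y x = 0
    rw [dotForm_apply]
    exact orth hY hy hx
  have h := Submodule.finrank_mono hle
  rw [LinearMap.BilinForm.finrank_orthogonal dotForm_nondeg] at h
  simp at h
  omega

/-- Packing of the words of weight 8. -/
theorem card_weight8_le (hY : Good Y) [DecidablePred (· ∈ C Y)] :
    (Finset.univ.filter fun v : V => v ∈ C Y ∧ hammingNorm v = 8).card ≤ 759 := by
  classical
  set O := Finset.univ.filter fun v : V => v ∈ C Y ∧ hammingNorm v = 8 with hO
  let sp : V → Finset (Fin 24) := fun v => Finset.univ.filter fun i => v i ≠ 0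
  have hsp : ∀ v, (sp v).card = hammingNorm v := fun v => rfl
  have hd : ∀ v ∈ O, ∀ w ∈ O, v ≠ w → Disjoint (Finset.powersetCard 5 (sp v)) (Finset.powersetCard 5 (sp w)) := by
    intro v hv w hw hvw
    rw [Finset.disjoint_left]
    intro s hs hs'
    obtain ⟨hv1, hv2⟩ := (Finset.mem_filter.mp hv).2
    obtain ⟨hw1, hw2⟩ := (Finset.mem_filter.mp hw).2
    obtain ⟨h1, h2⟩ := Finset.mem_powersetCard.mp hs
    obtain ⟨h3, _⟩ := Finset.mem_powersetCard.mp hs'
    have h4 : s ⊆ Finset.univ.filter fun i => v i ≠ 0 ∧ w i ≠ 0 := by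
      intro i hi
      have h5 := h1 hi
      have h6 := h3 hi
      simp only [sp, Finset.mem_filter, Finset.mem_univ, true_and] at h5 h6 ⊢
      exact ⟨h5, h6⟩
    have h5 := Finset.card_le_card h4
    have h6 := hammingNorm_add v w
    have h7 : v + w ≠ 0 := by
      intro h0
      apply hvw
      funext i
      have h8 := congrFun h0 i
      have h9 : ∀ x y : ZMod 2, x + y = 0 → x = y := by decide
      exact h9 _ _ h8
    have h8 := minw hY ((C Y).add_mem hv1 hw1) h7
    omega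
  have h1 : (O.biUnion fun v => Finset.powersetCard 5 (sp v)).card = O.card * 56 := by
    rw [Finset.card_biUnion (fun v hv w hw hvw => hd v hv w hw hvw)]
    rw [Finset.sum_congr rfl (g := fun _ => 56)]
    · simp
    · intro v hv
      rw [Finset.card_powersetCard, hsp, (Finset.mem_filter.mp hv).2.2]
      rfl
  have h2 : (O.biUnion fun v => Finset.powersetCard 5 (sp v)) ⊆ Finset.powersetCard 5 (Finset.univ : Finset (Fin 24)) := by
    intro s hs
    obtain ⟨v, _, hv⟩ := Finset.mem_biUnion.mp hs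
    exact Finset.mem_powersetCard.mpr ⟨Finset.subset_univ _, (Finset.mem_powersetCard.mp hv).2⟩
  have h3 := Finset.card_le_card h2
  rw [h1, Finset.card_powersetCard, Finset.card_univ, Fintype.card_fin] at h3
  have h4 : (24 : ℕ).choose 5 = 42504 := by decide
  omega

end Cfsg.Agent.Lib.LeechUniq.GoodA
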