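import Mathlib
import Cfsg.Agent.Lib.LeechUniq.GoodA

/-!
# Counting the vectors of norm 4 in frame coordinates

The count of the minimal vectors forces the code to have dimension 12 and the lattice to contain vectors with odd
coordinates.
-/

set_option autoImplicit false
set_option linter.unusedSectionVars false

namespace Cfsg.Agent.Lib.LeechUniq.GoodB

open Finset
open Cfsg Cfsg.Agent.Lib.LeechUniq.Frame Cfsg.Agent.Lib.LeechUniq.Coord
open Cfsg.Agent.Lib.Compute.AbstractGolay
open Cfsg.Agent.Lib.Sporadic.LeechBasic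
open Cfsg.Agent.Lib.LeechUniq.GoodA

variable {Y : AddSubgroup LL}

/-- The vectors with entries `± a` on `S` and zero elsewhere. -/
def signSet (S : Finset (Fin 24)) (a : ℤ) : Finset LL :=
  S.powerset.image (fun R => fun i => if i ∈ R then a else if i ∈ S then -a else 0)

theorem card_signSet (S : Finset (Fin 24)) (a : ℤ) : (signSet S a).card ≤ 2 ^ S.card := by
  unfold signSet
  refine Finset.card_image_le.trans ?_
  rw [Finset.card_powerset]

theorem mem_signSet {S : Finset (Fin 24)} {a : ℤ} {y : LL} (h1 : ∀ i ∈ S, y i = a ∨ y i = -a)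
    (h2 : ∀ i, i ∉ S → y i = 0) : y ∈ signSet S a := by
  classical
  refine Finset.mem_image.mpr ⟨S.filter (fun i => y i = a), Finset.mem_powerset.mpr (Finset.filter_subset _ _), ?_⟩
  funext i
  by_cases hi : i ∈ S
  · by_cases hy : y i = a
    · simp [hi, hy]
    · have h3 := (h1 i hi).resolve_left hy
      have h4 : i ∉ S.filter (fun i => y i = a) := fun h => hy (Finset.mem_filter.mp h).2
      simp only [if_neg h4, if_pos hi]
      exact h3.symm
  · simp [hi, h2 i hi]

theorem le_of_single (y : LL) (i : Fin 24) : y i * y i ≤ ∑ j, y j * y j :=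
  Finset.single_le_sum (f := fun j => y j * y j) (fun j _ => mul_self_nonneg _) (Finset.mem_univ i)

set_option maxRecDepth 100000 in
theorem A_bound (Af : Finset LL) (hA : ∀ y ∈ Af, (∀ i, (4 : ℤ) ∣ y i) ∧ ∑ i, y i * y i = 32) : Af.card ≤ 1104 := by
  classical
  have hsub : Af ⊆ (Finset.powersetCard 2 (univ : Finset (Fin 24))).biUnion (fun S => signSet S 4) := by
    intro y hy
    have h4 := (hA y hy).1
    have hs := (hA y hy).2
    let S : Finset (Fin 24) := univ.filter (fun i => y i ≠ 0)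
    have hval : ∀ i ∈ S, y i = 4 ∨ y i = -4 := by
      intro i hi
      have h1 : y i ≠ 0 := (mem_filter.mp hi).2
      have h2 : y i * y i ≤ 32 := by
        rw [← hs]
        exact le_of_single y i
      obtain ⟨a, ha⟩ := h4 i
      have h3 : a ≠ 0 := by
        rintro rfl
        simp at ha
        exact h1 ha
      have h5 : a * a ≤ 2 := by
        rw [ha] at h2
        nlinarith
      have h7 : -1 ≤ a := by nlinarith
      have h8 : a ≤ 1 := by nlinarith
      have h6 : a = 1 ∨ a = -1 := by omega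
      rcases h6 with rfl | rfl
      · left
        omega
      · right
        omega
    have hcard : S.card = 2 := by
      have h1 : ∑ i, y i * y i = ∑ i ∈ S, y i * y i := by
        symm
        apply Finset.sum_filter_of_ne
        intro i _ hi h0
        apply hi
        rw [h0, mul_zero]
      have h2 : ∑ i ∈ S, y i * y i = ∑ _i ∈ S, (16 : ℤ) := by
        refine Finset.sum_congr rfl fun i hi => ?_
        rcases hval i hi with h | h <;> rw [h] <;> norm_num
      rw [h1, h2] at hs
      simp only [sum_const, nsmul_eq_mul] at hs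
      omega
    exact mem_biUnion.mpr ⟨S, mem_powersetCard.mpr ⟨subset_univ _, hcard⟩,
      mem_signSet hval (fun i hi => by simpa [S] using hi)⟩
  have h1 := card_le_card hsub
  have h2 := Finset.card_biUnion_le_card_mul (Finset.powersetCard 2 (univ : Finset (Fin 24))) (fun S => signSet S 4) 4
    (fun S hS => by
      have := card_signSet S 4
      rw [(mem_powersetCard.mp hS).2] at this
      simpa using this)
  rw [card_powersetCard, card_univ, Fintype.card_fin] at h2
  have h3 : (24 : ℕ).choose 2 = 276 := by decide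
  omega

theorem E_shape (hY : Good Y) {y : LL} (hy : y ∈ Y) (h2 : ∀ i, (2 : ℤ) ∣ y i) (h4 : ¬ ∀ i, (4 : ℤ) ∣ y i)
    (hs : ∑ i, y i * y i = 32) :
    hammingNorm (wd y) = 8 ∧ ∀ i, (wd y i ≠ 0 → y i = 2 ∨ y i = -2) ∧ (wd y i = 0 → y i = 0) := by
  classical
  have hv : wd y ∈ C Y := ⟨y, hy, h2, rfl⟩
  have hne : wd y ≠ 0 := by
    intro h0
    apply h4
    intro i
    have h5 : wd y i = 0 := congrFun h0 i
    have h6 : ¬ ((y i / 2) % 2 = 1) := fun h' => ((zmod2_cast_ne_zero_iff _).2 h') h5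
    have h7 := h2 i
    omega
  have hw := minw hY hv hne
  let χ : LL := fun i => if wd y i ≠ 0 then 1 else 0
  have hχs : ∑ i, χ i = (hammingNorm (wd y) : ℤ) := by
    rw [hammingNorm_eq_sum]
    push_cast
    rfl
  have hg : ∀ i, 0 ≤ y i * y i - 4 * χ i := by
    intro i
    by_cases h : wd y i ≠ 0
    · have h6 : (y i / 2) % 2 = 1 := (zmod2_cast_ne_zero_iff _).1 h
      obtain ⟨t, ht⟩ := h2 i
      have h7 : t ≠ 0 := by
        rintro rfl
        simp [ht] at h6
      have h8 : 1 ≤ t * t := by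
        rcases lt_or_gt_of_ne h7 with h9 | h9 <;> nlinarith
      simp only [χ, h, if_true, ne_eq, not_false_eq_true]
      rw [ht]
      nlinarith
    · simp only [χ, h, if_false]
      nlinarith [mul_self_nonneg (y i)]
  have hsumg : ∑ i, (y i * y i - 4 * χ i) = 32 - 4 * (hammingNorm (wd y) : ℤ) := by
    rw [Finset.sum_sub_distrib, ← Finset.mul_sum, hχs, hs]
  have hnn : 0 ≤ ∑ i, (y i * y i - 4 * χ i) := Finset.sum_nonneg fun i _ => hg i
  have hw8 : hammingNorm (wd y) = 8 := by omega
  have hz : ∀ i, y i * y i - 4 * χ i = 0 := by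
    intro i
    have h5 : ∑ i, (y i * y i - 4 * χ i) = 0 := by
      rw [hsumg, hw8]
      norm_num
    exact (Finset.sum_eq_zero_iff_of_nonneg (fun i _ => hg i)).1 h5 i (mem_univ i)
  refine ⟨hw8, fun i => ⟨fun h => ?_, fun h => ?_⟩⟩
  · have h5 := hz i
    simp only [χ, h, if_true, ne_eq, not_false_eq_true] at h5
    have h6 : y i * y i = 2 * 2 := by omega
    exact mul_self_eq_mul_self_iff.1 h6
  · have h5 := hz i
    simp only [χ, h, ne_eq, not_true_eq_false, if_false] at h5
    have h6 : y i * y i = 0 := by omega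
    exact mul_self_eq_zero.1 h6

theorem fiber_le (hY : Good Y) (Fb : Finset LL) (a : V)
    (hFb : ∀ y ∈ Fb, y ∈ Y ∧ ∀ i, (a i ≠ 0 → y i = 2 ∨ y i = -2) ∧ (a i = 0 → y i = 0))
    (hcard : hammingNorm a = 8) : Fb.card ≤ 128 := by
  classical
  let S : Finset (Fin 24) := univ.filter fun i => a i ≠ 0
  have hS : S.card = 8 := hcard
  obtain ⟨i₀, hi₀⟩ : S.Nonempty := by
    rw [← Finset.card_pos]
    omega
  let m : LL → Finset (Fin 24) := fun y => (S.erase i₀).filter fun i => y i = 2
  have h1 : Fb.card ≤ (S.erase i₀).powerset.card := by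
    refine Finset.card_le_card_of_injOn m (fun y _ => Finset.mem_coe.2 (mem_powerset.mpr (filter_subset _ _))) ?_
    intro y hy y' hy' hm
    obtain ⟨hyY, hy2⟩ := hFb y hy
    obtain ⟨hyY', hy2'⟩ := hFb y' hy'
    have hoff : ∀ i, i ≠ i₀ → y i = y' i := by
      intro i hi
      by_cases hai : a i = 0
      · rw [(hy2 i).2 hai, (hy2' i).2 hai]
      · have hiS : i ∈ S.erase i₀ := mem_erase.mpr ⟨hi, mem_filter.mpr ⟨mem_univ _, hai⟩⟩
        have h3 : i ∈ m y ↔ i ∈ m y' := by rw [hm]
        simp only [m, mem_filter, hiS, true_and] at h3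
        rcases (hy2 i).1 hai with h4 | h4 <;> rcases (hy2' i).1 hai with h5 | h5 <;> rw [h4, h5]
        · exfalso
          rw [h4, h5] at h3
          norm_num at h3
        · exfalso
          rw [h4, h5] at h3
          norm_num at h3
    have hi₀a : a i₀ ≠ 0 := (mem_filter.mp hi₀).2
    funext i
    by_cases hi : i = i₀
    · subst hi
      rcases (hy2 i).1 hi₀a with h4 | h4 <;> rcases (hy2' i).1 hi₀a with h5 | h5
      · rw [h4, h5]
      · exfalso
        apply single_four_not_mem hY i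
        convert Y.sub_mem hyY hyY' using 1
        funext k
        by_cases hk : k = i
        · subst hk
          simp [h4, h5]
        · simp [Pi.single_eq_of_ne hk, hoff k hk]
      · exfalso
        apply single_four_not_mem hY i
        convert Y.sub_mem hyY' hyY using 1
        funext k
        by_cases hk : k = i
        · subst hk
          simp [h4, h5]
        · simp [Pi.single_eq_of_ne hk, hoff k hk]
      · rw [h4, h5]
    · exact hoff i hi
  rw [card_powerset, card_erase_of_mem hi₀, hS] at h1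
  simpa using h1

theorem odd_ne {a : ℤ} (h : ¬ (2 : ℤ) ∣ a) : 1 ≤ a * a := by
  have h1 : a ≠ 0 := by
    rintro rfl
    simp at h
  rcases lt_or_gt_of_ne h1 with h2 | h2 <;> nlinarith

theorem odd_shape {y : LL} (hodd : ∀ i, ¬ (2 : ℤ) ∣ y i) (hs : ∑ i, y i * y i = 32) : ∃ i, y i = 3 ∨ y i = -3 := by
  by_contra hcon
  push Not at hcon
  have h1 : ∀ i, y i * y i = 1 := by
    intro i
    have h2 : y i * y i - 1 ≤ ∑ j, (y j * y j - 1) :=
      Finset.single_le_sum (f := fun j => y j * y j - 1) (fun j _ => by have := odd_ne (hodd j); omega) (mem_univ i)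
    have h3 : ∑ j, (y j * y j - 1) = 8 := by
      rw [Finset.sum_sub_distrib, hs]
      simp
    rw [h3] at h2
    have h4 := hodd i
    have h5 := hcon i
    have h7 : -3 ≤ y i := by nlinarith
    have h8 : y i ≤ 3 := by nlinarith
    have h9 : y i = 1 ∨ y i = -1 := by omega
    rcases h9 with h | h <;> rw [h] <;> norm_num
  rw [Finset.sum_congr rfl (fun i _ => h1 i)] at hs
  simp at hs

theorem odd_shape2 {y : LL} (hodd : ∀ i, ¬ (2 : ℤ) ∣ y i) (hs : ∑ i, y i * y i = 32) (i : Fin 24)
    (hi : y i = 3 ∨ y i = -3) (j : Fin 24) (hj : j ≠ i) : y j = 1 ∨ y j = -1 := by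
  classical
  have hg : ∀ k, 0 ≤ y k * y k - 1 := fun k => by
    have := odd_ne (hodd k)
    omega
  have h3 : ∑ k, (y k * y k - 1) = 8 := by
    rw [Finset.sum_sub_distrib, hs]
    simp
  have h4 : y i * y i - 1 = 8 := by
    rcases hi with h | h <;> rw [h] <;> norm_num
  rw [← Finset.add_sum_erase _ _ (mem_univ i), h4] at h3
  have h5 : ∑ k ∈ univ.erase i, (y k * y k - 1) = 0 := by omega
  have h6 := (Finset.sum_eq_zero_iff_of_nonneg (fun k _ => hg k)).1 h5 j (mem_erase.mpr ⟨hj, mem_univ _⟩)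
  have h7 : y j * y j = 1 := by omega
  exact mul_self_eq_one_iff.1 h7

theorem wd_sub_odd {a b : LL} (i : Fin 24) (ha : ¬ (2 : ℤ) ∣ a i) (hb : ¬ (2 : ℤ) ∣ b i) :
    wd (a - b) i = wd a i + wd b i := by
  have h1 : (a i - b i) / 2 = a i / 2 - b i / 2 := by omega
  simp only [wd, Pi.sub_apply, h1]
  push_cast
  have h2 : ∀ x y : ZMod 2, x - y = x + y := by decide
  exact h2 _ _

theorem card_codeF_eq (C' : Submodule (ZMod 2) V) : (codeF C').card = Nat.card C' := by
  classical
  rw [Nat.card_eq_fintype_card, Fintype.card_subtype]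
  apply Finset.card_bij (fun v _ => v)
  · intro v hv
    simpa [mem_codeF] using hv
  · intro _ _ _ _ h
    exact h
  · intro v hv
    exact ⟨v, by simpa [mem_codeF] using hv, rfl⟩

theorem D_bound (hY : Good Y) (Df : Finset LL) {y₀ : LL} (hy₀ : y₀ ∈ Df)
    (hD : ∀ y ∈ Df, y ∈ Y ∧ (∀ i, ¬ (2 : ℤ) ∣ y i) ∧ ∑ i, y i * y i = 32) : Df.card ≤ 24 * Nat.card (C Y) := by
  classical
  have hsub : Df ⊆ (univ : Finset (Fin 24)).biUnion (fun i => Df.filter fun y => y i = 3 ∨ y i = -3) := by
    intro y hy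
    obtain ⟨i, hi⟩ := odd_shape (hD y hy).2.1 (hD y hy).2.2
    exact mem_biUnion.mpr ⟨i, mem_univ _, mem_filter.mpr ⟨hy, hi⟩⟩
  have h1 := card_le_card hsub
  have h2 := Finset.card_biUnion_le_card_mul (univ : Finset (Fin 24)) (fun i => Df.filter fun y => y i = 3 ∨ y i = -3)
    (codeF (C Y)).card (fun i _ => by
      refine Finset.card_le_card_of_injOn (fun y => wd (y - y₀)) ?_ ?_
      · intro y hy
        obtain ⟨hy1, hy2⟩ := mem_filter.mp (Finset.mem_coe.1 hy)
        obtain ⟨h3, h4, _⟩ := hD y hy1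
        obtain ⟨h5, h6, _⟩ := hD y₀ hy₀
        refine Finset.mem_coe.2 (mem_codeF.mpr ⟨y - y₀, Y.sub_mem h3 h5, fun k => ?_, rfl⟩)
        have h7 := h4 k
        have h8 := h6 k
        simp only [Pi.sub_apply]
        omega
      · intro y hy y' hy' hm
        obtain ⟨hy1, hy2⟩ := mem_filter.mp (Finset.mem_coe.1 hy)
        obtain ⟨hy1', hy2'⟩ := mem_filter.mp (Finset.mem_coe.1 hy')
        obtain ⟨h3, h4, h4'⟩ := hD y hy1
        obtain ⟨h3', h5, h5'⟩ := hD y' hy1'
        obtain ⟨_, h6, _⟩ := hD y₀ hy₀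
        have hw : ∀ k, wd y k = wd y' k := by
          intro k
          have h7 : wd (y - y₀) k = wd (y' - y₀) k := congrFun hm k
          rw [wd_sub_odd k (h4 k) (h6 k), wd_sub_odd k (h5 k) (h6 k)] at h7
          exact add_right_cancel h7
        funext k
        have hwk : ((y k / 2 : ℤ) : ZMod 2) = ((y' k / 2 : ℤ) : ZMod 2) := hw k
        by_cases hk : k = i
        · subst hk
          rcases hy2 with h8 | h8 <;> rcases hy2' with h9 | h9 <;> rw [h8, h9] <;> rw [h8, h9] at hwk <;>
            first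
            | rfl
            | exact absurd hwk (by decide)
        · rcases odd_shape2 h4 h4' i hy2 k hk with h8 | h8 <;>
            rcases odd_shape2 h5 h5' i hy2' k hk with h9 | h9 <;> rw [h8, h9] <;> rw [h8, h9] at hwk <;>
            first
            | rfl
            | exact absurd hwk (by decide))
  rw [card_univ, Fintype.card_fin, card_codeF_eq] at h2
  omega

/-- The main consequence of the count. -/
theorem main (hY : Good Y) : IsAG (C Y) ∧ ∃ y₁ ∈ Y, ∀ i, ¬ (2 : ℤ) ∣ y₁ i := by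
  classical
  have hfin : {y : LL | y ∈ Y ∧ ∑ i, y i * y i = 32}.Finite :=
    Set.finite_of_ncard_ne_zero (by rw [hY.count]; norm_num)
  set N := hfin.toFinset with hN
  have cN : N.card = 196560 := by rw [← Set.ncard_eq_toFinset_card _ hfin]; exact hY.count
  have mN : ∀ y ∈ N, y ∈ Y ∧ ∑ i, y i * y i = 32 := fun y hy => by simpa [hN] using hy
  let N2 := N.filter fun y => ∀ i, (2 : ℤ) ∣ y i
  let D := N.filter fun y => ¬ ∀ i, (2 : ℤ) ∣ y i
  let A := N2.filter fun y => ∀ i, (4 : ℤ) ∣ y i
  let E := N2.filter fun y => ¬ ∀ i, (4 : ℤ) ∣ y i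
  have c1 : N2.card + D.card = N.card := Finset.card_filter_add_card_filter_not _
  have c2 : A.card + E.card = N2.card := Finset.card_filter_add_card_filter_not _
  have cA : A.card ≤ 1104 := A_bound A (fun y hy => by
    obtain ⟨h1, h2⟩ := mem_filter.mp hy
    exact ⟨h2, (mN y (mem_filter.mp h1).1).2⟩)
  have cE : E.card ≤ 128 * 759 := by
    have hE : ∀ y ∈ E, y ∈ Y ∧ (∀ i, (2 : ℤ) ∣ y i) ∧ hammingNorm (wd y) = 8 ∧
        ∀ i, (wd y i ≠ 0 → y i = 2 ∨ y i = -2) ∧ (wd y i = 0 → y i = 0) := by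
      intro y hy
      obtain ⟨h1, h2⟩ := mem_filter.mp hy
      obtain ⟨h3, h4⟩ := mem_filter.mp h1
      exact ⟨(mN y h3).1, h4, E_shape hY (mN y h3).1 h4 h2 (mN y h3).2⟩
    have h1 : E.card ≤ 128 * (E.image wd).card := by
      apply Finset.card_le_mul_card_image
      intro a ha
      obtain ⟨y, hy, rfl⟩ := mem_image.mp ha
      refine fiber_le hY _ (wd y) ?_ (hE y hy).2.2.1
      intro y' hy'
      obtain ⟨h2, h3⟩ := mem_filter.mp hy'
      refine ⟨(hE y' h2).1, ?_⟩
      rw [← h3]
      exact (hE y' h2).2.2.2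
    have h2 : (E.image wd).card ≤ 759 := by
      refine le_trans (Finset.card_le_card ?_) (card_weight8_le hY)
      intro v hv
      obtain ⟨y, hy, rfl⟩ := mem_image.mp hv
      exact mem_filter.mpr ⟨mem_univ _, ⟨y, (hE y hy).1, (hE y hy).2.1, rfl⟩, (hE y hy).2.2.1⟩
    exact h1.trans (Nat.mul_le_mul_left _ h2)
  have cD : 98304 ≤ D.card := by omega
  obtain ⟨y₀, hy₀⟩ : D.Nonempty := by
    rw [← Finset.card_pos]
    omega
  have hD : ∀ y ∈ D, y ∈ Y ∧ (∀ i, ¬ (2 : ℤ) ∣ y i) ∧ ∑ i, y i * y i = 32 := by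
    intro y hy
    obtain ⟨h1, h2⟩ := mem_filter.mp hy
    obtain ⟨h3, h4⟩ := mN y h1
    refine ⟨h3, fun i hi => h2 fun j => ?_, h4⟩
    have h5 := par hY h3 i j
    omega
  have h3 := D_bound hY D hy₀ hD
  have h4 : 4096 ≤ Nat.card (C Y) := by omega
  rw [Module.natCard_eq_pow_finrank (K := ZMod 2), Nat.card_zmod] at h4
  have h5 := dim_le hY
  have h6 : Module.finrank (ZMod 2) (C Y) = 12 := by
    by_contra hne
    have h7 : Module.finrank (ZMod 2) (C Y) ≤ 11 := by omega
    have h8 : 2 ^ Module.finrank (ZMod 2) (C Y) ≤ 2 ^ 11 := Nat.pow_le_pow_right (by norm_num) h7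
    omega
  exact ⟨⟨h6, fun v hv w hw => orth hY hv hw, fun w hw hne => minw hY hw hne⟩, y₀, (hD y₀ hy₀).1, (hD y₀ hy₀).2.1⟩

end Cfsg.Agent.Lib.LeechUniq.GoodB
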