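import Mathlib
import Cfsg.Agent.Lib.LeechUniq.GoodB
import Cfsg.Agent.Lib.Compute.AbstractGolay2
import Cfsg.Agent.Lib.Sporadic.LeechMonomial
import Cfsg.Agent.S0407
import Cfsg.Agent.S0363

/-!
# Identification of the lattice in frame coordinates
-/

set_option autoImplicit false
set_option linter.unusedSectionVars false

namespace Cfsg.Agent.Lib.LeechUniq.Ident

open Finset
open Cfsg Cfsg.Agent.Lib.LeechUniq.Frame Cfsg.Agent.Lib.LeechUniq.Coord
open Cfsg.Agent.Lib.Compute.AbstractGolay
open Cfsg.Agent.Lib.Sporadic.LeechBasic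
open Cfsg.Agent.Lib.LeechUniq.GoodA Cfsg.Agent.Lib.LeechUniq.GoodB

variable {Y : AddSubgroup LL}

/-- An abstract Golay code is the given one after a bijection of the coordinates. -/
theorem exists_equiv {C' : Submodule (ZMod 2) V} (hC : IsAG C') :
    ∃ e : Fin 24 ≃ GolayPt, ∀ v : V, v ∈ C' ↔ (v ∘ e.symm) ∈ golayCode := by
  classical
  obtain ⟨e, he⟩ := Cfsg.Agent.S0407.result (α := Fin 24) (β := GolayPt) (by simp) (by simp [ZMod.card])
    (Cfsg.Agent.Lib.Compute.AbstractGolay2.steiner hC) Cfsg.Agent.S0363.result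
  refine ⟨e, ?_⟩
  let T : V →ₗ[ZMod 2] (GolayPt → ZMod 2) := LinearMap.funLeft (ZMod 2) (ZMod 2) e.symm
  have hT : ∀ v, T v = v ∘ e.symm := fun v => rfl
  have hTinj : Function.Injective T := by
    intro v w h
    funext i
    have := congrFun h (e i)
    simpa [T, LinearMap.funLeft_apply] using this
  have hmap : ∀ v ∈ C', hammingNorm v = 8 → T v ∈ golayCode := by
    intro v hv h8
    have h1 : support₂ v ∈ wordsOfWeight (C' : Set V) 8 := ⟨⟨v, hv, rfl⟩, h8⟩
    have h2 : (support₂ v).image e ∈ Cfsg.octads := by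
      rw [← he]
      exact ⟨_, h1, rfl⟩
    obtain ⟨⟨w, hw, hw2⟩, -⟩ := h2
    have h3 : w = T v := by
      apply support₂_injective
      rw [hw2]
      ext p
      rw [mem_support₂]
      show p ∈ (support₂ v).image e ↔ v (e.symm p) ≠ 0
      rw [mem_image]
      constructor
      · rintro ⟨i, hi, rfl⟩
        rw [e.symm_apply_apply]
        exact (mem_support₂ _ _).1 hi
      · intro hp
        exact ⟨e.symm p, (mem_support₂ _ _).2 hp, by simp⟩
    rw [← h3]
    exact hw
  have hle : C' ≤ golayCode.comap T := by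
    rw [← Cfsg.Agent.Lib.Compute.AbstractGolay2.span_octads hC, Submodule.span_le]
    rintro w ⟨hw1, hw2⟩
    exact hmap w hw1 hw2
  have hfg : Module.finrank (ZMod 2) golayCode = 12 := by
    have h1 := Cfsg.Agent.Lib.Sporadic.LeechMonomial.card_code
    rw [Module.natCard_eq_pow_finrank (K := ZMod 2), Nat.card_zmod] at h1
    exact Nat.pow_right_injective (le_refl 2) (h1.trans (by norm_num))
  have hfm : Module.finrank (ZMod 2) (C'.map T) = 12 := by
    rw [← (Submodule.equivMapOfInjective T hTinj C').finrank_eq]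
    exact hC.dim
  have hle2 : C'.map T ≤ golayCode := Submodule.map_le_iff_le_comap.mpr hle
  have heq : C'.map T = golayCode := Submodule.eq_of_le_of_finrank_eq hle2 (by rw [hfm, hfg])
  intro v
  constructor
  · intro hv
    exact hle hv
  · intro hv
    have h1 : T v ∈ C'.map T := by
      rw [heq]
      exact hv
    obtain ⟨u, hu, huv⟩ := h1
    rw [← hTinj huv]
    exact hu

/-- The lattice in frame coordinates, given a vector with all coordinates congruent to 1 modulo 4. -/
theorem Y_eq (hY : Good Y) {y₁ : LL} (hy₁Y : y₁ ∈ Y) (hy₁ : ∀ i, y₁ i % 4 = 1) (x : LL) :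
    x ∈ Y ↔ ∃ m : ℤ, (m = 0 ∨ m = 1) ∧ (∀ i, x i % 2 = m) ∧ (∑ i, x i) % 8 = 4 * m ∧ wd x ∈ C Y := by
  classical
  have ev_sum : ∀ u ∈ Y, (∀ i, (2 : ℤ) ∣ u i) → (8 : ℤ) ∣ ∑ i, u i := by
    intro u hu h2
    have h := hY.dot8 u hu y₁ hy₁Y
    have e : ∑ i, u i * y₁ i = ∑ i, u i + 8 * ∑ i, (u i / 2) * (y₁ i / 4) := by
      rw [Finset.mul_sum, ← Finset.sum_add_distrib]
      refine Finset.sum_congr rfl fun i _ => ?_
      obtain ⟨t, ht⟩ := h2 i
      have h3 := hy₁ i
      have h4 : y₁ i = 1 + 4 * (y₁ i / 4) := by omega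
      have h5 : u i / 2 = t := by omega
      rw [h5, ht]
      nth_rewrite 1 [h4]
      ring
    rw [e] at h
    exact (Int.dvd_add_left (dvd_mul_right _ _)).1 h
  have hsum1 : (∑ i, y₁ i) % 8 = 4 := by
    have h := hY.norm16 y₁ hy₁Y
    have e1 : ∑ i, y₁ i * y₁ i = 24 + 8 * ∑ i, (y₁ i / 4) + 16 * ∑ i, (y₁ i / 4) * (y₁ i / 4) := by
      have h3 : ∀ i, y₁ i * y₁ i = 1 + 8 * (y₁ i / 4) + 16 * ((y₁ i / 4) * (y₁ i / 4)) := by
        intro i
        have h4 : y₁ i = 1 + 4 * (y₁ i / 4) := by
          have := hy₁ i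
          omega
        nth_rewrite 1 [h4]
        nth_rewrite 2 [h4]
        ring
      rw [Finset.sum_congr rfl (fun i _ => h3 i), Finset.sum_add_distrib, Finset.sum_add_distrib, Finset.mul_sum,
        Finset.mul_sum]
      simp
    have e2 : ∑ i, y₁ i = 24 + 4 * ∑ i, (y₁ i / 4) := by
      have h3 : ∀ i, y₁ i = 1 + 4 * (y₁ i / 4) := by
        intro i
        have := hy₁ i
        omega
      nth_rewrite 1 [Finset.sum_congr rfl (fun i _ => h3 i)]
      rw [Finset.sum_add_distrib, Finset.mul_sum]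
      simp
    rw [e1] at h
    rw [e2]
    omega
  have hwd1 : wd y₁ = 0 := by
    funext i
    have h3 := hy₁ i
    have h4 : (2 : ℤ) ∣ y₁ i / 2 := by omega
    exact (ZMod.intCast_zmod_eq_zero_iff_dvd _ 2).2 (by exact_mod_cast h4)
  have even_case : ∀ x : LL, (∀ i, (2 : ℤ) ∣ x i) → (8 : ℤ) ∣ ∑ i, x i → wd x ∈ C Y → x ∈ Y := by
    intro x hx2 hx8 hxC
    obtain ⟨u, hu, hu2, huw⟩ := hxC
    have h4 : ∀ i, (4 : ℤ) ∣ x i - u i := by
      intro i
      have h5 : ((u i / 2 : ℤ) : ZMod 2) = ((x i / 2 : ℤ) : ZMod 2) := congrFun huw i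
      have h6 := (ZMod.intCast_eq_intCast_iff_dvd_sub (u i / 2) (x i / 2) 2).1 h5
      have h7 := hx2 i
      have h8 := hu2 i
      push_cast at h6
      omega
    let z : LL := fun i => (x i - u i) / 4
    have hxz : x = u + (fun i => 4 * z i) := by
      funext i
      have := h4 i
      simp only [Pi.add_apply, z]
      omega
    have hsumz : ∑ i, x i = ∑ i, u i + 4 * ∑ i, z i := by
      nth_rewrite 1 [hxz]
      simp only [Pi.add_apply]
      rw [Finset.sum_add_distrib, Finset.mul_sum]
    have h5 := ev_sum u hu hu2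
    have h6 : (2 : ℤ) ∣ ∑ i, z i := by
      rw [hsumz] at hx8
      omega
    rw [hxz]
    exact Y.add_mem hu (M_mem hY z h6)
  constructor
  · intro hx
    by_cases h2 : ∀ i, (2 : ℤ) ∣ x i
    · refine ⟨0, Or.inl rfl, fun i => ?_, ?_, ⟨x, hx, h2, rfl⟩⟩
      · have := h2 i
        omega
      · have := ev_sum x hx h2
        omega
    · push Not at h2
      obtain ⟨i₀, hi₀⟩ := h2
      have hodd : ∀ i, ¬ (2 : ℤ) ∣ x i := by
        intro i hi
        have := par hY hx i₀ i
        omega
      have hev : ∀ i, (2 : ℤ) ∣ (x - y₁) i := by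
        intro i
        have h3 := hodd i
        have h4 := hy₁ i
        simp only [Pi.sub_apply]
        omega
      have hmem : x - y₁ ∈ Y := Y.sub_mem hx hy₁Y
      refine ⟨1, Or.inr rfl, fun i => ?_, ?_, ?_⟩
      · have := hodd i
        omega
      · have h3 := ev_sum _ hmem hev
        simp only [Pi.sub_apply, Finset.sum_sub_distrib] at h3
        omega
      · have h3 : wd x = wd (x - y₁) := by
          funext i
          have h4 : ¬ (2 : ℤ) ∣ y₁ i := by
            have := hy₁ i
            omega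
          rw [wd_sub_odd i (hodd i) h4, hwd1]
          simp
        rw [h3]
        exact ⟨x - y₁, hmem, hev, rfl⟩
  · rintro ⟨m, hm | hm, h2, h8, hC⟩
    · subst hm
      refine even_case x (fun i => ?_) ?_ hC
      · have := h2 i
        omega
      · omega
    · subst hm
      have hodd : ∀ i, ¬ (2 : ℤ) ∣ x i := by
        intro i
        have := h2 i
        omega
      have hev : ∀ i, (2 : ℤ) ∣ (x - y₁) i := by
        intro i
        have h3 := h2 i
        have h4 := hy₁ i
        simp only [Pi.sub_apply]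
        omega
      have h3 : x - y₁ ∈ Y := by
        refine even_case _ hev ?_ ?_
        · simp only [Pi.sub_apply, Finset.sum_sub_distrib]
          omega
        · have h4 : wd (x - y₁) = wd x := by
            funext i
            have h4 : ¬ (2 : ℤ) ∣ y₁ i := by
              have := hy₁ i
              omega
            rw [wd_sub_odd i (hodd i) h4, hwd1]
            simp
          rw [h4]
          exact hC
      have h4 := Y.add_mem h3 hy₁Y
      simpa using h4

end Cfsg.Agent.Lib.LeechUniq.Ident
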